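import Cfsg.Prelude.Def_Transfer
import Mathlib.GroupTheory.FiniteAbelian.Duality
import Mathlib.GroupTheory.Index
import Mathlib.GroupTheory.IndexNormal
import Mathlib.Tactic

/-! Central automorphisms of extraspecial 2-groups are inner. -/

set_option autoImplicit false

namespace Cfsg.Agent.Extraspecial

open Cfsg

variable {Q : Type*} [Group Q] [Finite Q]

theorem comm_mem_center (h : IsExtraspecial 2 Q) (a b : Q) :
    a * b * a⁻¹ * b⁻¹ ∈ Subgroup.center Q := by
  rw [← h.1.2.2]
  exact Subgroup.commutator_mem_commutator (Subgroup.mem_top a) (Subgroup.mem_top b)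

theorem center_sq (h : IsExtraspecial 2 Q) {z : Q} (hz : z ∈ Subgroup.center Q) : z * z = 1 := by
  have := pow_card_eq_one' (x := (⟨z, hz⟩ : ↥(Subgroup.center Q)))
  rw [h.2, sq] at this
  simpa using congrArg Subtype.val this

theorem sq_mem_center (h : IsExtraspecial 2 Q) (a : Q) : a * a ∈ Subgroup.center Q := by
  refine Subgroup.mem_center_iff.2 fun b => ?_
  set k := a * b * a⁻¹ * b⁻¹ with hk
  have hkc := comm_mem_center h a b
  have e : a * b * a⁻¹ = k * b := by rw [hk]; group
  have e2 : a * a * b * (a * a)⁻¹ = b := by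
    calc a * a * b * (a * a)⁻¹ = a * (a * b * a⁻¹) * a⁻¹ := by group
      _ = (a * k) * b * a⁻¹ := by rw [e]; group
      _ = k * (a * b * a⁻¹) := by rw [Subgroup.mem_center_iff.1 (hk ▸ hkc : k ∈ Subgroup.center Q) a]; group
      _ = b := by rw [e, ← mul_assoc, center_sq h hkc, one_mul]
  exact (mul_inv_eq_iff_eq_mul.1 e2).symm

/-- Every homomorphism to the centre is a commutator map. -/
theorem exists_commutator_eq (h : IsExtraspecial 2 Q) (f : Q →* ↥(Subgroup.center Q)) :
    ∃ q : Q, ∀ x : Q, q * x * q⁻¹ * x⁻¹ = f x := by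
  classical
  letI : CommGroup (Q ⧸ (Subgroup.center Q)) := { (inferInstance : Group (Q ⧸ (Subgroup.center Q))) with
    mul_comm := fun a b => by
      obtain ⟨a, rfl⟩ := QuotientGroup.mk_surjective a
      obtain ⟨b, rfl⟩ := QuotientGroup.mk_surjective b
      rw [← QuotientGroup.mk_mul, ← QuotientGroup.mk_mul, QuotientGroup.eq_iff_div_mem, div_eq_mul_inv,
        mul_inv_rev, ← mul_assoc]
      exact comm_mem_center h a b }
  haveI : HasEnoughRootsOfUnity ℤ (Monoid.exponent (Q ⧸ (Subgroup.center Q))) := by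
    haveI h2 : HasEnoughRootsOfUnity ℤ 2 :=
      ⟨⟨-1, IsPrimitiveRoot.neg_one 0 (by norm_num)⟩, inferInstance⟩
    refine HasEnoughRootsOfUnity.of_dvd ℤ (n := 2) ?_
    refine Monoid.exponent_dvd_of_forall_pow_eq_one fun a => ?_
    obtain ⟨a, rfl⟩ := QuotientGroup.mk_surjective a
    rw [← QuotientGroup.mk_pow, QuotientGroup.eq_one_iff, sq]
    exact sq_mem_center h a
  have hhom : Nat.card (Q ⧸ (Subgroup.center Q) →* ℤˣ) = Nat.card (Q ⧸ (Subgroup.center Q)) :=
    CommGroup.card_monoidHom_of_hasEnoughRootsOfUnity (Q ⧸ (Subgroup.center Q)) ℤ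
  haveI : Fact (Nat.Prime 2) := ⟨Nat.prime_two⟩
  have hu : Nat.card ℤˣ = 2 := by rw [Nat.card_eq_fintype_card]; rfl
  let e : ↥(Subgroup.center Q) ≃* ℤˣ := mulEquivOfPrimeCardEq (p := 2) h.2 hu
  have hker : ∀ g : Q →* ↥(Subgroup.center Q), (Subgroup.center Q) ≤ g.ker := by
    intro g x hx
    letI : CommGroup ↥(Subgroup.center Q) :=
      { (inferInstance : Group ↥(Subgroup.center Q)) with
        mul_comm := fun a b => Subtype.ext (Subgroup.mem_center_iff.1 b.2 a) }
    have hx' : x ∈ commutator Q := by rw [h.1.2.2]; exact hx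
    exact Abelianization.commutator_subset_ker g hx'
  let Φ : (Q →* ↥(Subgroup.center Q)) → (Q ⧸ (Subgroup.center Q) →* ℤˣ) := fun g =>
    e.toMonoidHom.comp (QuotientGroup.lift (Subgroup.center Q) g (hker g))
  have hΦ : Function.Injective Φ := by
    intro g g' he
    ext x
    exact congrArg Subtype.val (e.injective (DFunLike.congr_fun he (x : Q ⧸ (Subgroup.center Q))))
  haveI : Finite (Q →* ↥(Subgroup.center Q)) := Finite.of_injective (fun g => (g : Q → ↥(Subgroup.center Q))) DFunLike.coe_injective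
  haveI : Finite (Q ⧸ (Subgroup.center Q) →* ℤˣ) := Finite.of_injective (fun g => (g : Q ⧸ (Subgroup.center Q) → ℤˣ)) DFunLike.coe_injective
  have hle : Nat.card (Q →* ↥(Subgroup.center Q)) ≤ Nat.card (Q ⧸ (Subgroup.center Q)) := (Nat.card_le_card_of_injective Φ hΦ).trans_eq hhom
  have hcomm : ∀ q x y : Q, q * (x * y) * q⁻¹ * (x * y)⁻¹ = (q * x * q⁻¹ * x⁻¹) * (q * y * q⁻¹ * y⁻¹) := by
    intro q x y
    have hc := Subgroup.mem_center_iff.1 (comm_mem_center h q y)
    calc q * (x * y) * q⁻¹ * (x * y)⁻¹ = q * x * q⁻¹ * ((q * y * q⁻¹ * y⁻¹) * x⁻¹) := by group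
      _ = _ := by rw [← hc x⁻¹]; group
  let ψ : Q ⧸ (Subgroup.center Q) → (Q →* ↥(Subgroup.center Q)) := fun q =>
    { toFun := fun x => ⟨q.out * x * q.out⁻¹ * x⁻¹, comm_mem_center h _ x⟩
      map_one' := Subtype.ext (by simp)
      map_mul' := fun x y => Subtype.ext (hcomm q.out x y) }
  have hψ : Function.Injective ψ := by
    intro q q' he
    rw [← QuotientGroup.out_eq' q, ← QuotientGroup.out_eq' q', QuotientGroup.eq]
    refine Subgroup.mem_center_iff.2 fun x => ?_
    have hx := congrArg Subtype.val (DFunLike.congr_fun he x)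
    have hx' : q.out * x * q.out⁻¹ = q'.out * x * q'.out⁻¹ := mul_right_cancel hx
    calc x * (q.out⁻¹ * q'.out) = q.out⁻¹ * (q.out * x * q.out⁻¹) * q'.out := by group
      _ = q.out⁻¹ * (q'.out * x * q'.out⁻¹) * q'.out := by rw [hx']
      _ = q.out⁻¹ * q'.out * x := by group
  obtain ⟨q, hq⟩ := (hψ.bijective_of_nat_card_le hle).2 f
  exact ⟨q.out, fun x => congrArg Subtype.val (DFunLike.congr_fun hq x)⟩

/-- An involutory automorphism fixing a subgroup of index at most 2 is inner. -/
theorem exists_inner (h : IsExtraspecial 2 Q) (θ : Q ≃* Q) (hθ : ∀ x, θ (θ x) = x)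
    (C : Subgroup Q) (hC : ∀ x, x ∈ C ↔ θ x = x) (hidx : C.index ≤ 2) :
    ∃ q : Q, ∀ x : Q, θ x = q * x * q⁻¹ := by
  have hkey : ∀ x, x⁻¹ * θ x ∈ Subgroup.center Q := by
    intro x
    by_cases hx : x ∈ C
    · rw [(hC x).1 hx, inv_mul_cancel]; exact one_mem _
    have hi : C.index = 2 := by
      have h0 : C.index ≠ 0 := Subgroup.index_ne_zero_of_finite
      have h1 : C.index ≠ 1 := fun e => hx (Subgroup.index_eq_one.1 e ▸ Subgroup.mem_top x)
      omega
    set c := x⁻¹ * θ x with hc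
    have hθx : θ x ∉ C := fun h' => hx ((hC x).2 (by
      have := (hC _).1 h'; rw [hθ] at this; exact this.symm))
    have hcC : c ∈ C := (Subgroup.mul_mem_iff_of_index_two hi).2 (by simp [hx, hθx])
    have e : θ x = x * c := by rw [hc, mul_inv_cancel_left]
    have hxx := (hC _).1 (Subgroup.mul_self_mem_of_index_two hi x)
    rw [map_mul, e] at hxx
    have hcx : Commute x c := by
      have hcc : c * c = 1 := by
        have h2 := hθ x
        rw [e, map_mul, (hC c).1 hcC, e, mul_assoc] at h2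
        exact mul_eq_left.1 h2
      have h3 : c * x * c = x := mul_left_cancel (a := x) (by simpa [mul_assoc] using hxx)
      show x * c = c * x
      calc x * c = c * x * c * c := by rw [h3]
        _ = c * x := by rw [mul_assoc _ c c, hcc, mul_one]
    have hcent : ∀ a ∈ C, Commute a c := by
      intro a ha
      have h1 : x * a * x⁻¹ ∈ C := by
        haveI := Subgroup.normal_of_index_eq_two hi
        exact Subgroup.Normal.conj_mem inferInstance a ha x
      have h2 := (hC _).1 h1
      rw [map_mul, map_mul, map_inv, (hC a).1 ha, e] at h2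
      show a * c = c * a
      calc a * c = x⁻¹ * (x * a * x⁻¹) * x * c := by group
        _ = x⁻¹ * (x * c * a * (x * c)⁻¹) * x * c := by rw [h2]
        _ = c * a * (c⁻¹ * x⁻¹) * (x * c) := by group
        _ = c * a := by group
    refine Subgroup.mem_center_iff.2 fun y => ?_
    by_cases hy : y ∈ C
    · exact (hcent y hy).eq
    · have h4 : x⁻¹ * y ∈ C := (Subgroup.mul_mem_iff_of_index_two hi).2 (by simp [hx, hy])
      have := hcx.mul_left (hcent _ h4)
      rwa [mul_inv_cancel_left] at this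
  let f : Q →* ↥(Subgroup.center Q) :=
    { toFun := fun x => ⟨x⁻¹ * θ x, hkey x⟩
      map_one' := Subtype.ext (by simp)
      map_mul' := fun a b => Subtype.ext (by
        show (a * b)⁻¹ * θ (a * b) = a⁻¹ * θ a * (b⁻¹ * θ b)
        rw [map_mul]
        calc (a * b)⁻¹ * (θ a * θ b) = b⁻¹ * (a⁻¹ * θ a) * θ b := by group
          _ = a⁻¹ * θ a * b⁻¹ * θ b := by rw [Subgroup.mem_center_iff.1 (hkey a) b⁻¹]
          _ = _ := by group) }
  obtain ⟨q, hq⟩ := exists_commutator_eq h f
  refine ⟨q, fun x => ?_⟩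
  have h2 : q * x * q⁻¹ * x⁻¹ = x⁻¹ * θ x := hq x
  calc θ x = x * (x⁻¹ * θ x) := by group
    _ = (x⁻¹ * θ x) * x := Subgroup.mem_center_iff.1 (hkey x) x
    _ = q * x * q⁻¹ := by rw [← h2]; group

end Cfsg.Agent.Extraspecial
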